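import Cfsg.Agent.BpSpor.Tools
import Cfsg.Agent.BpSpor.UniqueCrit

/-!
# S1332, sporadic rows: an involution whose centralizer meets the `p'`-core trivially (helper62)

`z` is an involution of the finite group `D`, `p` an odd prime.

* `good_of_inverted` : the `p'`-core of `C_D(z)` is contained in `{1, z}` and `D` has no nontrivial characteristic
  elementary abelian `r`-subgroup (`r ≠ 2, p`) inverted by `z`: then `Good p D`;
* `card_dvd_mulAut` : `f : C_D(z) → S` onto a nonabelian simple group with a central kernel of exponent `2 p`, `z` a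
  square in `C_D(z)`, `E` normal in `D`, inverted by `z`, nontrivial of exponent `r`: then `|S|` divides `|Aut E|`;
* `card_dvd_pred` : a subgroup acting freely on `E \ {1}` has order dividing `|E| - 1`.
-/

set_option autoImplicit false

namespace Cfsg.Agent.BpRankZero

open Subgroup Cfsg Cfsg.Agent.Lib
open Cfsg.Agent.BpTab
open Cfsg.Agent.BpSpor (inf_core_le inv_of_free)

universe u v

variable {D : Type u} [Group D]

/-- the elementary abelian `r`-part of a commutative subgroup -/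
def om (r : ℕ) (Y : Subgroup D) (hY : ∀ a ∈ Y, ∀ b ∈ Y, a * b = b * a) : Subgroup D where
  carrier := {a | a ∈ Y ∧ a ^ r = 1}
  one_mem' := ⟨one_mem _, one_pow _⟩
  mul_mem' := by
    rintro a b ⟨ha, ha'⟩ ⟨hb, hb'⟩
    have hc : Commute a b := hY a ha b hb
    exact ⟨mul_mem ha hb, by rw [hc.mul_pow, ha', hb', one_mul]⟩
  inv_mem' := by
    rintro a ⟨ha, ha'⟩
    exact ⟨inv_mem ha, by rw [inv_pow, ha', inv_one]⟩

theorem mem_om {r : ℕ} {Y : Subgroup D} {hY : ∀ a ∈ Y, ∀ b ∈ Y, a * b = b * a} {a : D} :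
    a ∈ om r Y hY ↔ a ∈ Y ∧ a ^ r = 1 := Iff.rfl

theorem om_characteristic {r : ℕ} {Y : Subgroup D} (hc : Y.Characteristic) (hY : ∀ a ∈ Y, ∀ b ∈ Y, a * b = b * a) :
    (om r Y hY).Characteristic := by
  rw [characteristic_iff_comap_le]
  intro φ a ha
  rw [mem_comap] at ha
  obtain ⟨h1, h2⟩ := ha
  refine ⟨?_, ?_⟩
  · have h3 := characteristic_iff_comap_eq.1 hc φ
    rw [← h3]
    exact h1
  · apply φ.injective
    rw [map_one, map_pow]
    exact h2

variable [Finite D]

/-- a commutative characteristic subgroup inverted by `z` is trivial if its `r`-parts are -/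
theorem eq_bot_of_om {p : ℕ} {z : D} (hE : ∀ (r : ℕ) (E : Subgroup D), r.Prime → r ≠ 2 → r ≠ p → E.Characteristic →
      (∀ a ∈ E, a ^ r = 1) → (∀ a ∈ E, ∀ b ∈ E, a * b = b * a) → (∀ a ∈ E, z * a * z⁻¹ = a⁻¹) → E = ⊥)
    {Y : Subgroup D} (hc : Y.Characteristic) (hY : ∀ a ∈ Y, ∀ b ∈ Y, a * b = b * a)
    (hinv : ∀ a ∈ Y, z * a * z⁻¹ = a⁻¹) (h2 : (Nat.card ↥Y).Coprime 2) (hp : (Nat.card ↥Y).Coprime p) : Y = ⊥ := by
  by_contra hne
  have h1 : Nat.card ↥Y ≠ 1 := fun h => hne (card_eq_one.1 h)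
  obtain ⟨r, hr, hrd⟩ := Nat.exists_prime_and_dvd h1
  have hrF : Fact r.Prime := ⟨hr⟩
  have hr2 : r ≠ 2 := by
    rintro rfl
    exact (Nat.prime_two.coprime_iff_not_dvd.1 h2.symm) hrd
  have hrp : r ≠ p := by
    rintro rfl
    exact (hr.coprime_iff_not_dvd.1 hp.symm) hrd
  obtain ⟨y, hy⟩ := exists_prime_orderOf_dvd_card' r hrd
  have h3 := hE r (om r Y hY) hr hr2 hrp (om_characteristic hc hY) (fun a ha => ha.2)
    (fun a ha b hb => hY a ha.1 b hb.1) (fun a ha => hinv a ha.1)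
  have h4 : (y : D) ∈ om r Y hY := ⟨y.2, by
    have h5 : y ^ r = 1 := by rw [← hy, pow_orderOf_eq_one]
    exact congrArg Subtype.val h5⟩
  rw [h3, mem_bot] at h4
  have h6 : y = 1 := Subtype.ext h4
  rw [h6, orderOf_one] at hy
  exact hr.one_lt.ne hy

/-- **the criterion**: `C_D(z)` meets the `p'`-core in at most `{1, z}` and `z` inverts no nontrivial characteristic
elementary abelian `r`-subgroup, `r ≠ 2, p` -/
theorem good_of_inverted {p : ℕ} {z : D} (hz : z * z = 1) (hz1 : z ≠ 1)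
    (hO : ∀ g ∈ pPrimeCore p ↥(centralizer ({z} : Set D)), (g : D) = 1 ∨ (g : D) = z)
    (hE : ∀ (r : ℕ) (E : Subgroup D), r.Prime → r ≠ 2 → r ≠ p → E.Characteristic →
      (∀ a ∈ E, a ^ r = 1) → (∀ a ∈ E, ∀ b ∈ E, a * b = b * a) → (∀ a ∈ E, z * a * z⁻¹ = a⁻¹) → E = ⊥) :
    Good p D := by
  have h2F : Fact (Nat.Prime 2) := ⟨Nat.prime_two⟩
  have hWn := Cores.pPrimeCore_normal (G := D) p
  have hWc := Cores.pPrimeCore_characteristic (G := D) p
  have hW := Cores.pPrimeCore_coprime (G := D) p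
  set W := pPrimeCore p D with hWdef
  have hOn := Cores.pPrimeCore_normal (G := D) 2
  have hOc := Cores.pPrimeCore_characteristic (G := D) 2
  have hO2 := Cores.pPrimeCore_coprime (G := D) 2
  have hz2 : orderOf z = 2 := orderOf_eq_prime (by rw [pow_two, hz]) hz1
  have hWC : ∀ w ∈ W, w * z = z * w → w = 1 ∨ w = z := by
    intro w hw hc
    have hc' : w ∈ centralizer ({z} : Set D) := mem_centralizer_singleton_iff.2 hc
    have h1 : (⟨w, hc'⟩ : ↥(centralizer ({z} : Set D))) ∈ (pPrimeCore p D ⊓ centralizer ({z} : Set D)).subgroupOf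
        (centralizer ({z} : Set D)) := ⟨hw, hc'⟩
    exact hO _ (inf_core_le (p := p) _ h1)
  have not_odd : ∀ K : Subgroup D, (Nat.card ↥K).Coprime 2 → z ∉ K := by
    intro K hK hzK
    have h1 : orderOf (⟨z, hzK⟩ : ↥K) = 2 := by rw [← Subgroup.orderOf_coe, hz2]
    have h3 : 2 ∣ Nat.card ↥K := h1 ▸ orderOf_dvd_natCard _
    exact (Nat.prime_two.coprime_iff_not_dvd.1 hK.symm) h3
  have trivial_inf : ∀ K : Subgroup D, K ≤ W → z ∉ K → K ⊓ centralizer ({z} : Set D) = ⊥ := by
    intro K hKW hzK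
    rw [eq_bot_iff]
    rintro k ⟨hk, hkc⟩
    rw [mem_bot]
    rcases hWC k (hKW hk) (mem_centralizer_singleton_iff.1 hkc) with h | h
    · exact h
    · exact absurd (h ▸ hk) hzK
  -- the odd part of the core is trivial
  have hY : W ⊓ pPrimeCore 2 D = ⊥ := by
    have hYn : (W ⊓ pPrimeCore 2 D).Normal := inferInstance
    have hYc : (W ⊓ pPrimeCore 2 D).Characteristic := by
      rw [characteristic_iff_comap_le]
      rintro φ a ⟨h1, h3⟩
      refine ⟨?_, ?_⟩
      · have h5 := characteristic_iff_comap_eq.1 hWc φ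
        rw [← h5]; exact h1
      · have h5 := characteristic_iff_comap_eq.1 hOc φ
        rw [← h5]; exact h3
    have hY2 : (Nat.card ↥(W ⊓ pPrimeCore 2 D)).Coprime 2 := hO2.coprime_dvd_left (card_dvd_of_le inf_le_right)
    have hYp : (Nat.card ↥(W ⊓ pPrimeCore 2 D)).Coprime p := hW.coprime_dvd_left (card_dvd_of_le inf_le_left)
    obtain ⟨h1, h3⟩ := inv_of_free hz (trivial_inf _ inf_le_left (not_odd _ hY2))
    exact eq_bot_of_om hE hYc h3 h1 hY2 hYp
  by_cases hzW : z ∈ W
  · -- `W = {1, z}`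
    obtain ⟨T, hT⟩ : ∃ T : Sylow 2 ↥W, (⟨z, hzW⟩ : ↥W) ∈ (T : Subgroup ↥W) := by
      have h1 : IsPGroup 2 ↥(zpowers (⟨z, hzW⟩ : ↥W)) := by
        refine IsPGroup.of_card (n := 1) ?_
        rw [Nat.card_zpowers, ← Subgroup.orderOf_coe, hz2, pow_one]
      obtain ⟨T, hT⟩ := h1.exists_le_sylow
      exact ⟨T, hT (mem_zpowers _)⟩
    have hTz : ∀ t ∈ (T : Subgroup ↥W), t = 1 ∨ t = ⟨z, hzW⟩ := by
      have hTnt : Nontrivial ↥(T : Subgroup ↥W) :=
        ⟨⟨⟨z, hzW⟩, hT⟩, 1, fun h => hz1 (congrArg (fun w : ↥(T : Subgroup ↥W) => ((w : ↥W) : D)) h)⟩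
      have hcn := T.2.center_nontrivial
      obtain ⟨c, hc1⟩ := exists_ne (1 : ↥(center ↥(T : Subgroup ↥W)))
      have hcz : (((c : ↥(T : Subgroup ↥W)) : ↥W) : D) = z := by
        have h1 : (c : ↥(T : Subgroup ↥W)) * ⟨⟨z, hzW⟩, hT⟩ = ⟨⟨z, hzW⟩, hT⟩ * (c : ↥(T : Subgroup ↥W)) :=
          (mem_center_iff.1 c.2 _).symm
        have h3 := congrArg (fun w : ↥(T : Subgroup ↥W) => ((w : ↥W) : D)) h1
        rcases hWC _ ((c : ↥(T : Subgroup ↥W)) : ↥W).2 h3 with h | h
        · exfalso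
          apply hc1
          apply Subtype.ext
          apply Subtype.ext
          exact Subtype.ext h
        · exact h
      intro t ht
      have h1 : (c : ↥(T : Subgroup ↥W)) * ⟨t, ht⟩ = ⟨t, ht⟩ * (c : ↥(T : Subgroup ↥W)) := (mem_center_iff.1 c.2 _).symm
      have h3 : z * (t : D) = (t : D) * z := by
        have h4 := congrArg (fun w : ↥(T : Subgroup ↥W) => ((w : ↥W) : D)) h1
        change (((c : ↥(T : Subgroup ↥W)) : ↥W) : D) * (t : D) = (t : D) * (((c : ↥(T : Subgroup ↥W)) : ↥W) : D) at h4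
        rwa [hcz] at h4
      rcases hWC _ t.2 h3.symm with h | h
      · exact Or.inl (Subtype.ext h)
      · exact Or.inr (Subtype.ext h)
    have hNC : normalizer ((T : Subgroup ↥W) : Set ↥W) ≤ centralizer ((T : Subgroup ↥W) : Set ↥W) := by
      intro n hn
      rw [mem_centralizer_iff]
      intro t ht
      rcases hTz t ht with rfl | rfl
      · rw [one_mul, mul_one]
      · have h1 : n * ⟨z, hzW⟩ * n⁻¹ ∈ (T : Subgroup ↥W) := (mem_normalizer_iff.1 hn _).1 hT
        rcases hTz _ h1 with h | h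
        · exfalso
          have h3 : (⟨z, hzW⟩ : ↥W) = 1 := by
            rw [mul_inv_eq_one] at h
            exact mul_eq_left.1 h
          exact hz1 (congrArg Subtype.val h3)
        · exact (mul_inv_eq_iff_eq_mul.1 h).symm
    have hcompl := MonoidHom.ker_transferSylow_isComplement' T hNC
    have hK2 : (Nat.card ↥(MonoidHom.transferSylow T hNC).ker).Coprime 2 := by
      have h1 := MonoidHom.not_dvd_card_ker_transferSylow T hNC
      exact (Nat.prime_two.coprime_iff_not_dvd.2 h1).symm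
    have hKb : (MonoidHom.transferSylow T hNC).ker = ⊥ := by
      have h1 : (MonoidHom.transferSylow T hNC).ker ≤ pPrimeCore 2 ↥W :=
        Cores.le_pPrimeCore inferInstance hK2
      have h3 : (pPrimeCore 2 ↥W).map W.subtype = W ⊓ pPrimeCore 2 D := Cores.map_subtype_pPrimeCore 2 hWn
      rw [hY, Subgroup.map_eq_bot_iff_of_injective _ W.subtype_injective] at h3
      rw [eq_bot_iff, ← h3]
      exact h1
    have hTtop : (T : Subgroup ↥W) = ⊤ := by
      rw [hKb] at hcompl
      exact isComplement'_bot_left.1 hcompl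
    have hWz : ∀ w ∈ W, w = 1 ∨ w = z := by
      intro w hw
      have h1 : (⟨w, hw⟩ : ↥W) ∈ (T : Subgroup ↥W) := hTtop ▸ mem_top _
      rcases hTz _ h1 with h | h
      · exact Or.inl (congrArg Subtype.val h)
      · exact Or.inr (congrArg Subtype.val h)
    unfold Good
    rw [commutator_eq_bot_iff_le_centralizer]
    intro l _
    rw [mem_centralizer_iff]
    intro w hw
    rcases hWz w hw with rfl | rfl
    · rw [one_mul, mul_one]
    · have h1 := hWn.conj_mem _ hzW l
      rcases hWz _ h1 with h | h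
      · exfalso
        rw [mul_inv_eq_one] at h
        exact hz1 (mul_eq_left.1 h)
      · exact (mul_inv_eq_iff_eq_mul.1 h).symm
  · -- `W` is inverted by `z`
    obtain ⟨h1, h3⟩ := inv_of_free hz (trivial_inf _ le_rfl hzW)
    have h5 : (Nat.card ↥W).Coprime 2 := by
      refine (Nat.prime_two.coprime_iff_not_dvd.2 fun hd => ?_).symm
      obtain ⟨y, hy⟩ := exists_prime_orderOf_dvd_card' 2 hd
      have h6 : y ^ 2 = 1 := by rw [← hy, pow_orderOf_eq_one]
      have h7 : (y : D) * y = 1 := by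
        have h8 := congrArg (Subtype.val) h6
        rw [pow_two] at h8
        exact h8
      have h9 : (y : D)⁻¹ = y := inv_eq_of_mul_eq_one_right h7
      have h10 := h1 y y.2
      rw [h9] at h10
      rcases hWC y y.2 (mul_inv_eq_iff_eq_mul.1 h10).symm with h | h
      · have h11 : y = 1 := Subtype.ext h
        rw [h11, orderOf_one] at hy
        norm_num at hy
      · exact hzW (h ▸ y.2)
    have h6 : W ≤ pPrimeCore 2 D := Cores.le_pPrimeCore hWn h5
    exact good_of_core (by rw [← hWdef]; exact (inf_eq_left.2 h6).symm.trans hY)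

omit [Finite D] in
/-- nontrivial elements of an odd subgroup inverted by `z` are not centralised by `z` -/
theorem eq_one_of_inv {r : ℕ} (hr : Odd r) {z a : D} (ha : a ^ r = 1) (hi : z * a * z⁻¹ = a⁻¹)
    (hc : z * a = a * z) : a = 1 := by
  have h1 : a = a⁻¹ := by rw [← hi, hc, mul_inv_cancel_right]
  have h2 : a ^ 2 = 1 := by
    rw [pow_two]
    nth_rewrite 2 [h1]
    exact mul_inv_cancel a
  have h3 : a ^ Nat.gcd 2 r = 1 := pow_gcd_eq_one.2 ⟨h2, ha⟩
  rwa [Nat.coprime_two_left.2 hr, pow_one] at h3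

/-- conjugation of `C_D(z)` on a normal subgroup -/
noncomputable def cact (z : D) (E : Subgroup D) [E.Normal] : ↥(centralizer ({z} : Set D)) →* MulAut ↥E :=
  (MulAut.conjNormal (H := E)).comp (centralizer ({z} : Set D)).subtype

omit [Finite D] in
theorem cact_apply (z : D) (E : Subgroup D) [E.Normal] (g : ↥(centralizer ({z} : Set D))) (a : ↥E) :
    ((cact z E g a : ↥E) : D) = (g : D) * a * (g : D)⁻¹ := MulAut.conjNormal_apply _ _

omit [Finite D] in
/-- **the kernel of the action**: `f : C_D(z) → S` onto a nonabelian simple group, the kernel central of exponent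
`2 p`, `z = k * k` with `k` in `C_D(z)`, `E` normal, of exponent `r` odd and inverted by `z`, not trivial: the kernel
of the action on `E` lies in the kernel of `f` -/
theorem ker_cact_le {p : ℕ} (hp : Odd p) {z : D} (hz : z * z = 1) {S : Type v} [Group S] [IsSimpleGroup S]
    {f : ↥(centralizer ({z} : Set D)) →* S} (hf : Function.Surjective f)
    (hker : ∀ g ∈ f.ker, g ∈ center ↥(centralizer ({z} : Set D)) ∧ g ^ (2 * p) = 1)
    {k : ↥(centralizer ({z} : Set D))} (hk : (k : D) * k = z) {E : Subgroup D} [hEn : E.Normal] {r : ℕ} (hr : Odd r)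
    (hexp : ∀ a ∈ E, a ^ r = 1) (hinv : ∀ a ∈ E, z * a * z⁻¹ = a⁻¹) (hne : E ≠ ⊥) :
    (cact z E).ker ≤ f.ker := by
  have hn : ((cact z E).ker.map f).Normal := (inferInstance : (cact z E).ker.Normal).map f hf
  rcases hn.eq_bot_or_eq_top with h | h
  · intro g hg
    have h1 : f g ∈ (cact z E).ker.map f := mem_map_of_mem f hg
    rw [h, mem_bot] at h1
    exact h1
  · exfalso
    apply hne
    obtain ⟨a, ha, hak⟩ : f k ∈ (cact z E).ker.map f := h ▸ mem_top _
    -- `k = a * c`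
    set c := a⁻¹ * k with hc
    have hcker : c ∈ f.ker := by
      rw [MonoidHom.mem_ker, hc, map_mul, map_inv, hak, inv_mul_cancel]
    obtain ⟨hcc, hcp⟩ := hker c hcker
    have hkac : k = a * c := by rw [hc]; group
    have h1 : (cact z E (k * k)) ^ p = 1 := by
      have h3 : cact z E k = cact z E c := by rw [hkac, map_mul, MonoidHom.mem_ker.1 ha, one_mul]
      rw [map_mul, h3, ← map_mul, ← map_pow, ← pow_two, ← pow_mul, hcp, map_one]
    have h3 : ((k * k : ↥(centralizer ({z} : Set D))) : D) = z := hk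
    have h5 : cact z E (k * k) ^ 2 = 1 := by
      rw [← map_pow]
      have h6 : (k * k) ^ 2 = 1 := by
        apply Subtype.ext
        rw [Subgroup.coe_pow, h3, pow_two, hz]
        rfl
      rw [h6, map_one]
    have h6 : cact z E (k * k) = 1 := by
      have h7 : (cact z E (k * k)) ^ Nat.gcd 2 p = 1 := pow_gcd_eq_one.2 ⟨h5, h1⟩
      rwa [Nat.coprime_two_left.2 hp, pow_one] at h7
    rw [eq_bot_iff]
    intro e he
    rw [mem_bot]
    have h7 : ((cact z E (k * k) ⟨e, he⟩ : ↥E) : D) = e := by rw [h6]; rfl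
    rw [cact_apply, h3] at h7
    exact eq_one_of_inv hr (hexp e he) (hinv e he) (mul_inv_eq_iff_eq_mul.1 h7)

/-- `|S|` divides the order of the automorphism group of `E` -/
theorem card_dvd_mulAut {p : ℕ} (hp : Odd p) {z : D} (hz : z * z = 1) {S : Type v} [Group S] [IsSimpleGroup S]
    {f : ↥(centralizer ({z} : Set D)) →* S} (hf : Function.Surjective f)
    (hker : ∀ g ∈ f.ker, g ∈ center ↥(centralizer ({z} : Set D)) ∧ g ^ (2 * p) = 1)
    {k : ↥(centralizer ({z} : Set D))} (hk : (k : D) * k = z) {E : Subgroup D} [hEn : E.Normal] {r : ℕ} (hr : Odd r)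
    (hexp : ∀ a ∈ E, a ^ r = 1) (hinv : ∀ a ∈ E, z * a * z⁻¹ = a⁻¹) (hne : E ≠ ⊥) :
    Nat.card S ∣ Nat.card (MulAut ↥E) := by
  have h1 := ker_cact_le hp hz hf hker hk hr hexp hinv hne
  have h2 : Nat.card S = f.ker.index := by
    rw [index_ker, MonoidHom.range_eq_top.2 hf, card_top]
  rw [h2]
  refine (index_dvd_of_le h1).trans ?_
  rw [index_ker]
  exact card_subgroup_dvd_card _

/-- the order of an elementary abelian subgroup -/
theorem exists_card {r : ℕ} [hr : Fact r.Prime] {E : Subgroup D} (hexp : ∀ a ∈ E, a ^ r = 1) :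
    ∃ d : ℕ, Nat.card ↥E = r ^ d := by
  have h1 : IsPGroup r ↥E := fun a => ⟨1, Subtype.ext (by rw [pow_one]; exact hexp a a.2)⟩
  exact IsPGroup.iff_card.1 h1

/-- the same with the order `r ^ d` of `E` -/
theorem card_dvd_prod {p : ℕ} (hp : Odd p) {z : D} (hz : z * z = 1) {S : Type v} [Group S] [IsSimpleGroup S]
    {f : ↥(centralizer ({z} : Set D)) →* S} (hf : Function.Surjective f)
    (hker : ∀ g ∈ f.ker, g ∈ center ↥(centralizer ({z} : Set D)) ∧ g ^ (2 * p) = 1)
    {k : ↥(centralizer ({z} : Set D))} (hk : (k : D) * k = z) {E : Subgroup D} [hEn : E.Normal] {r : ℕ}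
    (hrp : r.Prime) (hr2 : r ≠ 2)
    (hexp : ∀ a ∈ E, a ^ r = 1) (hcomm : ∀ a ∈ E, ∀ b ∈ E, a * b = b * a)
    (hinv : ∀ a ∈ E, z * a * z⁻¹ = a⁻¹) (hne : E ≠ ⊥) {d : ℕ} (hd : Nat.card ↥E = r ^ d) :
    Nat.card S ∣ ∏ i : Fin d, (r ^ d - r ^ (i : ℕ)) := by
  have hF : Fact r.Prime := ⟨hrp⟩
  have h1 := card_dvd_mulAut hp hz hf hker hk (hrp.odd_of_ne_two hr2) hexp hinv hne
  rwa [Transfer.ElemAbAut.card_mulAut r d (fun a b => Subtype.ext (hcomm a a.2 b b.2))
    (fun a => Subtype.ext (hexp a a.2)) hd] at h1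

/-- a subgroup acting freely on `E \ {1}` -/
theorem card_dvd_pred {E R : Subgroup D} (hn : ∀ g ∈ R, ∀ a ∈ E, g * a * g⁻¹ ∈ E)
    (hf : ∀ g ∈ R, g ≠ 1 → ∀ a ∈ E, g * a = a * g → a = 1) : Nat.card ↥R ∣ Nat.card ↥E - 1 := by
  classical
  let X := {y : D // y ∈ E ∧ y ≠ 1}
  let act : MulAction ↥R X :=
    { smul := fun g y => ⟨g * y * (g : D)⁻¹, hn g g.2 y y.2.1, by
        intro h
        apply y.2.2
        have := congrArg (fun w => (g : D)⁻¹ * w * g) h
        simpa [mul_assoc] using this⟩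
      one_smul := fun y => by
        apply Subtype.ext
        change (1 : D) * y * (1 : D)⁻¹ = y
        simp
      mul_smul := fun g h y => by
        apply Subtype.ext
        change (g * h : D) * y * (g * h : D)⁻¹ = g * (h * y * (h : D)⁻¹) * (g : D)⁻¹
        group }
  have hstab : ∀ y : X, MulAction.stabilizer ↥R y = ⊥ := by
    intro y
    rw [eq_bot_iff]
    intro g hg
    have h1 : (g : D) * y * (g : D)⁻¹ = y := congrArg Subtype.val (MulAction.mem_stabilizer_iff.1 hg)
    rw [mem_bot]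
    by_contra hg1
    refine y.2.2 (hf g g.2 (fun h => hg1 (Subtype.ext h)) y y.2.1 ?_)
    exact mul_inv_eq_iff_eq_mul.1 h1
  have h1 := Nat.card_congr (MulAction.selfEquivOrbitsQuotientProd (G := ↥R) (X := X) hstab)
  rw [Nat.card_prod] at h1
  have h2 : Nat.card X = Nat.card ↥E - 1 := by
    have h3 : Nat.card X = Nat.card ({(1 : ↥E)}ᶜ : Set ↥E) := by
      refine Nat.card_congr ⟨fun y => ⟨⟨y.1, y.2.1⟩, fun h => y.2.2 (congrArg Subtype.val h)⟩,
        fun y => ⟨y.1.1, y.1.2, fun h => y.2 (Subtype.ext h)⟩, fun _ => rfl, fun _ => rfl⟩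
    rw [h3]
    have h4 : Nat.card ({(1 : ↥E)}ᶜ : Set ↥E) = ({(1 : ↥E)}ᶜ : Set ↥E).ncard := rfl
    rw [h4, Set.ncard_compl, Set.ncard_singleton]
  rw [h2] at h1
  rw [h1]
  exact dvd_mul_left _ _

end Cfsg.Agent.BpRankZero
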