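import Cfsg.Agent.BpRankZero.Core

/-!
# S1332, sporadic rows: a generalized quaternion group of order 16 acting freely (helper62)

`g ^ 4 = z`, `h * h = z`, `h * g * h⁻¹ = g⁻¹`, `z` an involution: every nontrivial element of `⟨g, h⟩` has a power
equal to `z`, and the order is divisible by 16. If `z` inverts the subgroup `E` of odd exponent `r` and `g`, `h`
normalise `E`, then `16 ∣ |E| - 1`; so `4 ∣ d` for `|E| = r ^ d`, `r ≡ 3, 5 mod 8`.

* `sixteen_dvd` : `16 ∣ |E| - 1`;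
* `prime_dvd` : `y` of prime order `q`, no fixed points on `E`: `q ∣ |E| - 1`;
* `four_dvd`, `six_dvd`, `twelve_dvd` : the numbers.
-/

set_option autoImplicit false

namespace Cfsg.Agent.BpRankZero

open Subgroup

universe u

variable {D : Type u} [Group D]

/-- normal form in `⟨g, h⟩` -/
theorem quat_form {g h z : D} (hg : g ^ 4 = z) (hh : h * h = z) (hz : z * z = 1) (hgh : h * g * h⁻¹ = g⁻¹)
    {t : D} (ht : t ∈ closure ({g, h} : Set D)) : (∃ i : ℕ, t = g ^ i) ∨ (∃ i : ℕ, t = g ^ i * h) := by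
  have hg8 : g ^ 8 = 1 := by
    rw [show (8 : ℕ) = 4 * 2 by norm_num, pow_mul, hg, pow_two, hz]
  have hgi : g⁻¹ = g ^ 7 := by
    rw [inv_eq_iff_mul_eq_one, ← pow_succ', hg8]
  have hgn : ∀ i : ℕ, (g ^ i)⁻¹ = g ^ (7 * i) := fun i => by rw [← inv_pow, hgi, ← pow_mul]
  have hhg : ∀ i : ℕ, h * g ^ i = g ^ (7 * i) * h := by
    intro i
    have h1 : h * g ^ i * h⁻¹ = g ^ (7 * i) := by
      rw [← conj_pow, hgh, inv_pow, hgn]
    rw [← h1]; group
  have hhi : h⁻¹ = g ^ 4 * h := by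
    rw [hg, inv_eq_iff_mul_eq_one, ← mul_assoc, ← hh]
    have : h * (h * h) * h = (h * h) * (h * h) := by group
    rw [this, hh, hz]
  refine closure_induction (p := fun t _ => (∃ i : ℕ, t = g ^ i) ∨ (∃ i : ℕ, t = g ^ i * h)) ?_ ?_ ?_ ?_ ht
  · intro x hx
    rcases hx with rfl | hx
    · exact Or.inl ⟨1, (pow_one _).symm⟩
    · rw [Set.mem_singleton_iff] at hx
      subst hx
      exact Or.inr ⟨0, by rw [pow_zero, one_mul]⟩
  · exact Or.inl ⟨0, (pow_zero _).symm⟩
  · rintro a b _ _ (⟨i, rfl⟩ | ⟨i, rfl⟩) (⟨j, rfl⟩ | ⟨j, rfl⟩)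
    · exact Or.inl ⟨i + j, by rw [pow_add]⟩
    · exact Or.inr ⟨i + j, by rw [pow_add, mul_assoc]⟩
    · exact Or.inr ⟨i + 7 * j, by rw [mul_assoc, hhg, ← mul_assoc, ← pow_add]⟩
    · refine Or.inl ⟨i + 7 * j + 4, ?_⟩
      calc g ^ i * h * (g ^ j * h) = g ^ i * (h * g ^ j) * h := by group
        _ = g ^ i * g ^ (7 * j) * (h * h) := by rw [hhg]; group
        _ = g ^ (i + 7 * j + 4) := by rw [hh, ← hg, ← pow_add, ← pow_add]
  · rintro a _ (⟨i, rfl⟩ | ⟨i, rfl⟩)
    · exact Or.inl ⟨7 * i, hgn i⟩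
    · refine Or.inr ⟨4 + 7 * (7 * i), ?_⟩
      rw [mul_inv_rev, hgn, hhi, mul_assoc, hhg, ← mul_assoc, ← pow_add]

/-- every nontrivial element of `⟨g, h⟩` has a power equal to `z` -/
theorem quat_pow {g h z : D} (hg : g ^ 4 = z) (hh : h * h = z) (hz : z * z = 1) (hgh : h * g * h⁻¹ = g⁻¹)
    {t : D} (ht : t ∈ closure ({g, h} : Set D)) (ht1 : t ≠ 1) : ∃ n : ℕ, t ^ n = z := by
  have hg8 : g ^ 8 = 1 := by
    rw [show (8 : ℕ) = 4 * 2 by norm_num, pow_mul, hg, pow_two, hz]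
  rcases quat_form hg hh hz hgh ht with ⟨i, rfl⟩ | ⟨i, rfl⟩
  · -- a power of `g`
    have h1 : g ^ i = g ^ (i % 8) := by
      conv_lhs => rw [← Nat.div_add_mod i 8, pow_add, pow_mul, hg8, one_pow, one_mul]
    rw [h1] at ht1 ⊢
    have h2 : i % 8 < 8 := Nat.mod_lt _ (by norm_num)
    generalize i % 8 = j at ht1 h2 ⊢
    have key : ∀ n : ℕ, j * n % 8 = 4 → (g ^ j) ^ n = z := by
      intro n hn
      rw [← pow_mul, ← Nat.div_add_mod (j * n) 8, pow_add, pow_mul, hg8, one_pow, one_mul, hn, hg]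
    interval_cases j
    · exact absurd (pow_zero g) ht1
    · exact ⟨4, key 4 rfl⟩
    · exact ⟨2, key 2 rfl⟩
    · exact ⟨4, key 4 rfl⟩
    · exact ⟨1, key 1 rfl⟩
    · exact ⟨4, key 4 rfl⟩
    · exact ⟨2, key 2 rfl⟩
    · exact ⟨4, key 4 rfl⟩
  · refine ⟨2, ?_⟩
    have h1 : h * g ^ i * h⁻¹ = (g ^ i)⁻¹ := by rw [← conj_pow, hgh, inv_pow]
    calc (g ^ i * h) ^ 2 = g ^ i * (h * g ^ i * h⁻¹) * (h * h) := by rw [pow_two]; group
      _ = z := by rw [h1, mul_inv_cancel, one_mul, hh]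

variable [Finite D]

/-- the order of `⟨g, h⟩` is divisible by 16 -/
theorem sixteen_dvd_card {g h z : D} (hg : g ^ 4 = z) (hh : h * h = z) (hz : z * z = 1) (hz1 : z ≠ 1)
    (hgh : h * g * h⁻¹ = g⁻¹) : 16 ∣ Nat.card ↥(closure ({g, h} : Set D)) := by
  have h2F : Fact (Nat.Prime 2) := ⟨Nat.prime_two⟩
  have hg8 : g ^ 8 = 1 := by
    rw [show (8 : ℕ) = 4 * 2 by norm_num, pow_mul, hg, pow_two, hz]
  have hog : orderOf g = 8 := by
    have h1 : ¬ g ^ 2 ^ 2 = 1 := by
      rw [show (2 : ℕ) ^ 2 = 4 by norm_num, hg]; exact hz1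
    have h3 : g ^ 2 ^ (2 + 1) = 1 := by rw [show (2 : ℕ) ^ (2 + 1) = 8 by norm_num, hg8]
    rw [orderOf_eq_prime_pow h1 h3]
    norm_num
  set R := closure ({g, h} : Set D) with hR
  have hgR : g ∈ R := subset_closure (Set.mem_insert _ _)
  have hhR : h ∈ R := subset_closure (Set.mem_insert_of_mem _ rfl)
  -- `R` is a 2-group
  have hR2 : IsPGroup 2 ↥R := by
    rintro ⟨t, ht⟩
    by_cases ht1 : t = 1
    · subst ht1
      exact ⟨0, Subtype.ext (by rw [Subgroup.coe_pow, one_pow]; rfl)⟩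
    · refine ⟨3, Subtype.ext ?_⟩
      change t ^ 2 ^ 3 = 1
      rcases quat_form hg hh hz hgh ht with ⟨i, rfl⟩ | ⟨i, rfl⟩
      · rw [← pow_mul, mul_comm, pow_mul, show (2 : ℕ) ^ 3 = 8 by norm_num, hg8, one_pow]
      · have h1 : h * g ^ i * h⁻¹ = (g ^ i)⁻¹ := by rw [← conj_pow, hgh, inv_pow]
        have h3 : (g ^ i * h) ^ 2 = z := by
          calc (g ^ i * h) ^ 2 = g ^ i * (h * g ^ i * h⁻¹) * (h * h) := by rw [pow_two]; group
            _ = z := by rw [h1, mul_inv_cancel, one_mul, hh]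
        have h4 : z ^ 2 = 1 := by rw [pow_two, hz]
        rw [show (2 : ℕ) ^ 3 = 2 * (2 * 2) by norm_num, pow_mul, h3, pow_mul, h4, one_pow]
  obtain ⟨k, hk⟩ := IsPGroup.iff_card.1 hR2
  have h1 : Nat.card ↥(zpowers g) ∣ Nat.card ↥R := card_dvd_of_le (zpowers_le.2 hgR)
  rw [Nat.card_zpowers, hog, hk] at h1
  have hk3 : 3 ≤ k := by
    rw [show (8 : ℕ) = 2 ^ 3 by norm_num] at h1
    exact (Nat.pow_dvd_pow_iff_le_right (by norm_num)).1 h1
  rw [hk]
  rcases Nat.eq_or_lt_of_le hk3 with h3 | h3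
  · exfalso
    -- `R = ⟨g⟩`
    have h4 : zpowers g = R := by
      refine eq_of_le_of_card_ge (zpowers_le.2 hgR) ?_
      rw [hk, ← h3, Nat.card_zpowers, hog]
      norm_num
    have h5 : h ∈ zpowers g := h4 ▸ hhR
    obtain ⟨m, hm⟩ := mem_zpowers_iff.1 h5
    have h6 : h * g * h⁻¹ = g := by rw [← hm]; group
    rw [hgh] at h6
    have h7 : g ^ 2 = 1 := by
      rw [pow_two]
      nth_rewrite 2 [← h6]
      exact mul_inv_cancel g
    apply hz1
    rw [← hg, show (4 : ℕ) = 2 * 2 by norm_num, pow_mul, h7, one_pow]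
  · rw [show (16 : ℕ) = 2 ^ 4 by norm_num]
    exact pow_dvd_pow 2 h3

/-- **16 divides `|E| - 1`** -/
theorem sixteen_dvd {g h z : D} (hg : g ^ 4 = z) (hh : h * h = z) (hz : z * z = 1) (hz1 : z ≠ 1)
    (hgh : h * g * h⁻¹ = g⁻¹) {E : Subgroup D} (hgE : ∀ a ∈ E, g * a * g⁻¹ ∈ E) (hhE : ∀ a ∈ E, h * a * h⁻¹ ∈ E)
    {r : ℕ} (hr : Odd r) (hexp : ∀ a ∈ E, a ^ r = 1) (hinv : ∀ a ∈ E, z * a * z⁻¹ = a⁻¹) :
    16 ∣ Nat.card ↥E - 1 := by
  refine (sixteen_dvd_card hg hh hz hz1 hgh).trans (card_dvd_pred ?_ ?_)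
  · -- normalising
    have key : closure ({g, h} : Set D) ≤ normalizer (E : Set D) := by
      rw [closure_le]
      rintro x (rfl | hx)
      · have hle : E.map (MulAut.conj x).toMonoidHom ≤ E := by
          rintro _ ⟨a, ha, rfl⟩
          exact hgE a ha
        have heq : E.map (MulAut.conj x).toMonoidHom = E :=
          eq_of_le_of_card_ge hle (le_of_eq (Nat.card_congr (E.equivMapOfInjective _ (MulAut.conj x).injective).toEquiv))
        rw [SetLike.mem_coe, mem_normalizer_iff]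
        refine fun a => ⟨fun ha => hgE a ha, fun ha => ?_⟩
        rw [← heq] at ha
        obtain ⟨b, hb, hbe⟩ := ha
        have : b = a := (MulAut.conj x).injective hbe
        exact this ▸ hb
      · rw [Set.mem_singleton_iff] at hx
        subst hx
        have hle : E.map (MulAut.conj x).toMonoidHom ≤ E := by
          rintro _ ⟨a, ha, rfl⟩
          exact hhE a ha
        have heq : E.map (MulAut.conj x).toMonoidHom = E :=
          eq_of_le_of_card_ge hle (le_of_eq (Nat.card_congr (E.equivMapOfInjective _ (MulAut.conj x).injective).toEquiv))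
        rw [SetLike.mem_coe, mem_normalizer_iff]
        refine fun a => ⟨fun ha => hhE a ha, fun ha => ?_⟩
        rw [← heq] at ha
        obtain ⟨b, hb, hbe⟩ := ha
        have : b = a := (MulAut.conj x).injective hbe
        exact this ▸ hb
    intro x hx a ha
    exact (mem_normalizer_iff.1 (key hx) a).1 ha
  · intro x hx hx1 a ha hc
    obtain ⟨n, hn⟩ := quat_pow hg hh hz hgh hx hx1
    have h1 : Commute (x ^ n) a := Commute.pow_left hc n
    rw [hn] at h1
    exact eq_one_of_inv hr (hexp a ha) (hinv a ha) h1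

/-- an element of prime order `q` without fixed points on `E` -/
theorem prime_dvd {q : ℕ} (hq : q.Prime) {y : D} (hy : orderOf y = q) {E : Subgroup D}
    (hyE : ∀ a ∈ E, y * a * y⁻¹ ∈ E) (hf : ∀ a ∈ E, y * a = a * y → a = 1) : q ∣ Nat.card ↥E - 1 := by
  have h1 : Nat.card ↥(zpowers y) ∣ Nat.card ↥E - 1 := by
    refine card_dvd_pred ?_ ?_
    · intro x hx a ha
      obtain ⟨n, rfl⟩ : ∃ n : ℕ, y ^ n = x :=
        Submonoid.mem_powers_iff _ _ |>.1 ((isOfFinOrder_of_finite y).mem_powers_iff_mem_zpowers.2 hx)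
      have key : ∀ m : ℕ, y ^ m * a * (y ^ m)⁻¹ ∈ E := by
        intro m
        induction m with
        | zero => simpa using ha
        | succ m ih =>
          have h2 : y ^ (m + 1) * a * (y ^ (m + 1))⁻¹ = y * (y ^ m * a * (y ^ m)⁻¹) * y⁻¹ := by
            rw [pow_succ']; group
          rw [h2]
          exact hyE _ ih
      exact key n
    · intro x hx hx1 a ha hc
      refine hf a ha ?_
      have h2 : y ∈ zpowers x := by
        have h3 : orderOf x = q := by
          have h4 : orderOf x ∣ q := by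
            have h5 := orderOf_dvd_of_mem_zpowers hx
            rwa [hy] at h5
          rcases (Nat.dvd_prime hq).1 h4 with h5 | h5
          · exact absurd (orderOf_eq_one_iff.1 h5) hx1
          · exact h5
        have h6 : zpowers x = zpowers y := by
          refine eq_of_le_of_card_ge (zpowers_le.2 hx) ?_
          rw [Nat.card_zpowers, Nat.card_zpowers, h3, hy]
        rw [h6]; exact mem_zpowers y
      obtain ⟨m, rfl⟩ := mem_zpowers_iff.1 h2
      exact (Commute.zpow_left (show Commute x a from hc) m).eq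
  rwa [Nat.card_zpowers, hy] at h1

/-! ### numbers -/

theorem four_dvd {r d : ℕ} (hr : r = 3 ∨ r = 5) (h : 16 ∣ r ^ d - 1) : 4 ∣ d := by
  have key : ∀ q s : ℕ, r ^ (4 * q + s) % 16 = r ^ s % 16 := by
    intro q s
    induction q with
    | zero => simp
    | succ q ih =>
      have h1 : r ^ (4 * (q + 1) + s) = r ^ 4 * r ^ (4 * q + s) := by rw [← pow_add]; congr 1; ring
      rw [h1, Nat.mul_mod, ih]
      rcases hr with rfl | rfl <;> omega
  have h1 : r ^ d % 16 = 1 := by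
    have h2 : 1 ≤ r ^ d := Nat.one_le_pow _ _ (by rcases hr with rfl | rfl <;> norm_num)
    obtain ⟨m, hm⟩ := h
    omega
  rw [← Nat.div_add_mod d 4, key] at h1
  have h3 : d % 4 < 4 := Nat.mod_lt _ (by norm_num)
  apply Nat.dvd_of_mod_eq_zero
  generalize d % 4 = e at h1 h3
  rcases hr with rfl | rfl <;> interval_cases e <;> first | rfl | (norm_num at h1)

theorem six_dvd {r d : ℕ} (hr : r = 3 ∨ r = 5) (h : 7 ∣ r ^ d - 1) : 6 ∣ d := by
  have key : ∀ q s : ℕ, r ^ (6 * q + s) % 7 = r ^ s % 7 := by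
    intro q s
    induction q with
    | zero => simp
    | succ q ih =>
      have h1 : r ^ (6 * (q + 1) + s) = r ^ 6 * r ^ (6 * q + s) := by rw [← pow_add]; congr 1; ring
      rw [h1, Nat.mul_mod, ih]
      rcases hr with rfl | rfl <;> omega
  have h1 : r ^ d % 7 = 1 := by
    have h2 : 1 ≤ r ^ d := Nat.one_le_pow _ _ (by rcases hr with rfl | rfl <;> norm_num)
    obtain ⟨m, hm⟩ := h
    omega
  rw [← Nat.div_add_mod d 6, key] at h1
  have h3 : d % 6 < 6 := Nat.mod_lt _ (by norm_num)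
  apply Nat.dvd_of_mod_eq_zero
  generalize d % 6 = e at h1 h3
  rcases hr with rfl | rfl <;> interval_cases e <;> first | rfl | (norm_num at h1)

theorem twelve_dvd {r d : ℕ} (hr : r = 3 ∨ r = 5) (h : 16 ∣ r ^ d - 1) (h' : 7 ∣ r ^ d - 1) : 12 ∣ d := by
  have h1 := four_dvd hr h
  have h2 := six_dvd hr h'
  omega

end Cfsg.Agent.BpRankZero
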